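import Cfsg.Agent.Lib.Helper75.LW.Defs45
import Cfsg.Agent.Lib.Helper29.LW.R1

/-!
# Project LW45 (S0745): package [R1']

In the rigid situation (only `k ≤ n`) the pointwise stabiliser of a `(k-1)`-set is trivial.
-/

set_option autoImplicit false

namespace Cfsg.Agent.Lib.Helper38.LW

open Cfsg.Agent.Lib.Helper75.LW

universe u

theorem pkgR1' (hBrT : PkgBrT.{u}) : PkgR1'.{u} := by
  intro α _ _ G k hR
  by_contra hT
  unfold Triv at hT
  push Not at hT
  obtain ⟨s₀, hs₀, g, hgG, hfix, hg1⟩ := hT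
  have hk1 : 1 < k := by have := hR.k3; omega
  have hkn : k ≤ Fintype.card α := hR.kn
  obtain ⟨s₁, -, hs₁⟩ := Finset.exists_subset_card_eq (s := (Finset.univ : Finset α))
    (n := k) (by rw [Finset.card_univ]; exact hkn)
  have hl : 1 < Nat.card (fixingSubgroup G (s₀ : Set α)) := by
    rw [Finite.one_lt_card_iff_nontrivial]
    refine ⟨⟨⟨⟨g, hgG⟩, ?_⟩, 1, ?_⟩⟩
    · rw [mem_fixingSubgroup_iff]
      intro y hy
      exact hfix y hy
    · intro h
      apply hg1
      have := congrArg (fun x : fixingSubgroup G (s₀ : Set α) => ((x.1 : G) : Equiv.Perm α)) h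
      simpa using this
  have hpre := Cfsg.Agent.S0744.result G hk1 hkn
    (Nat.card (fixingSubgroup G (s₀ : Set α))) (Nat.card (fixingSubgroup G (s₁ : Set α))) hl
    (fun s hs => Cfsg.Agent.Lib.Helper29.LW.card_fixing_eq G (k - 1) hR.h1 s s₀ hs hs₀)
    (fun s hs => Cfsg.Agent.Lib.Helper29.LW.card_fixing_eq G k hR.h2 s s₁ hs hs₁)
  exact hR.ntr ((hBrT G (k - 1)).mp hpre)

end Cfsg.Agent.Lib.Helper38.LW
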