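import Mathlib
import Cfsg.Agent.Lib.Helper75.LW.Defs
import Cfsg.Agent.S0708

/-!
# S0746 (project LW): package [SHARP]

No sharply `t`-transitive group, `t ≥ 4`, of degree `≥ t + 8` (from S0708).
-/

set_option autoImplicit false

namespace Cfsg.Agent.Lib.Helper38.LW

open Cfsg.Agent.Lib.Helper75.LW

universe u

/-- the action of the pointwise stabiliser of `S` on the complement of `S` -/
@[reducible] def psAct {α : Type u} (G : Subgroup (Equiv.Perm α)) (S : Finset α) :
    MulAction ↥(PS G S) {a : α // a ∉ S} where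
  smul g a := ⟨(g : Equiv.Perm α) a.1, fun h => a.2 (by
    have h1 : (g : Equiv.Perm α) ((g : Equiv.Perm α) a.1) = (g : Equiv.Perm α) a.1 := g.2.2 _ h
    have h2 := (g : Equiv.Perm α).injective h1
    rw [← h2]; exact h)⟩
  one_smul a := Subtype.ext rfl
  mul_smul g h a := Subtype.ext rfl

theorem pkgSharp (hExt : PkgExt.{u}) : PkgSharp.{u} := by
  intro α _ _ G t ht hT hTriv hn
  classical
  obtain ⟨S, -, hS⟩ := Finset.exists_subset_card_eq (s := (Finset.univ : Finset α)) (n := t - 4)
    (by rw [Finset.card_univ]; omega)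
  let _ : MulAction ↥(PS G S) {a : α // a ∉ S} := psAct G S
  have hcardΩ : Fintype.card {a : α // a ∉ S} = Fintype.card α - (t - 4) := by
    rw [Fintype.card_subtype_compl (fun a => a ∈ S), Fintype.card_coe, hS]
  have key : ∀ x : Fin 4 ↪ {a : α // a ∉ S},
      (S ∪ Finset.univ.map (x.trans (Function.Embedding.subtype _))).card = t := by
    intro x
    rw [Finset.card_union_of_disjoint, Finset.card_map, Finset.card_univ, Fintype.card_fin, hS]
    · omega
    · rw [Finset.disjoint_left]
      intro a ha ha'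
      rw [Finset.mem_map] at ha'
      obtain ⟨i, -, rfl⟩ := ha'
      exact (x i).2 ha
  have hmemx : ∀ (x : Fin 4 ↪ {a : α // a ∉ S}) (i : Fin 4),
      ((x i : {a : α // a ∉ S}) : α) ∈ S ∪ Finset.univ.map (x.trans (Function.Embedding.subtype _)) := by
    intro x i
    apply Finset.mem_union_right
    rw [Finset.mem_map]
    exact ⟨i, Finset.mem_univ _, rfl⟩
  have h4 : MulAction.IsMultiplyPretransitive ↥(PS G S) {a : α // a ∉ S} 4 := by
    rw [MulAction.isMultiplyPretransitive_iff]
    intro x y
    obtain ⟨φ, hφ⟩ : ∃ φ : α → α, φ = fun a =>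
        if h : ∃ i, ((x i : {a : α // a ∉ S}) : α) = a then
          ((y (Classical.choose h) : {a : α // a ∉ S}) : α) else a := ⟨_, rfl⟩
    have hφS : ∀ a ∈ S, φ a = a := by
      intro a ha
      subst hφ
      exact dif_neg (by rintro ⟨i, hi⟩; exact (x i).2 (hi ▸ ha))
    have hφx : ∀ i, φ ((x i : {a : α // a ∉ S}) : α) = ((y i : {a : α // a ∉ S}) : α) := by
      intro i
      have hex : ∃ j, ((x j : {a : α // a ∉ S}) : α) = ((x i : {a : α // a ∉ S}) : α) := ⟨i, rfl⟩
      have hch : Classical.choose hex = i := x.injective (Subtype.ext (Classical.choose_spec hex))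
      subst hφ
      show (if h : ∃ j, ((x j : {a : α // a ∉ S}) : α) = ((x i : {a : α // a ∉ S}) : α) then
          ((y (Classical.choose h) : {a : α // a ∉ S}) : α) else _) = _
      rw [dif_pos hex, hch]
    have hinj : Set.InjOn φ
        ((S ∪ Finset.univ.map (x.trans (Function.Embedding.subtype _)) : Finset α) : Set α) := by
      intro a ha b hb hab
      rw [Finset.mem_coe, Finset.mem_union, Finset.mem_map] at ha hb
      rcases ha with ha | ⟨i, -, rfl⟩
      · rcases hb with hb | ⟨j, -, rfl⟩
        · rw [hφS a ha, hφS b hb] at hab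
          exact hab
        · exfalso
          have h1 : φ ((x j : {a : α // a ∉ S}) : α) = ((y j : {a : α // a ∉ S}) : α) := hφx j
          have h2 : a = ((y j : {a : α // a ∉ S}) : α) := by
            rw [← h1, ← hφS a ha]; exact hab
          exact (y j).2 (h2 ▸ ha)
      · rcases hb with hb | ⟨j, -, rfl⟩
        · exfalso
          have h1 : φ ((x i : {a : α // a ∉ S}) : α) = ((y i : {a : α // a ∉ S}) : α) := hφx i
          have h2 : b = ((y i : {a : α // a ∉ S}) : α) := by
            rw [← h1, ← hφS b hb]; exact hab.symm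
          exact (y i).2 (h2 ▸ hb)
        · have h1 : φ ((x i : {a : α // a ∉ S}) : α) = ((y i : {a : α // a ∉ S}) : α) := hφx i
          have h2 : φ ((x j : {a : α // a ∉ S}) : α) = ((y j : {a : α // a ∉ S}) : α) := hφx j
          have h3 : ((y i : {a : α // a ∉ S}) : α) = ((y j : {a : α // a ∉ S}) : α) := by
            rw [← h1, ← h2]; exact hab
          have h4 : i = j := y.injective (Subtype.ext h3)
          rw [h4]
    obtain ⟨g, hgG, hg⟩ := hExt G t _ φ (key x) hT hinj
    have hgPS : g ∈ PS G S :=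
      ⟨hgG, fun a ha => by rw [hg a (Finset.mem_union_left _ ha), hφS a ha]⟩
    refine ⟨⟨g, hgPS⟩, ?_⟩
    ext i
    show g ((x i : {a : α // a ∉ S}) : α) = ((y i : {a : α // a ∉ S}) : α)
    rw [hg _ (hmemx x i), hφx]
  have hsharp : ∀ x : Fin 4 ↪ {a : α // a ∉ S}, MulAction.stabilizer ↥(PS G S) x = ⊥ := by
    intro x
    rw [eq_bot_iff]
    intro g hg
    rw [MulAction.mem_stabilizer_iff] at hg
    rw [Subgroup.mem_bot]
    apply Subtype.ext
    show (g : Equiv.Perm α) = 1
    apply hTriv _ (key x) g.1 g.2.1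
    intro a ha
    rw [Finset.mem_union, Finset.mem_map] at ha
    rcases ha with ha | ⟨i, -, rfl⟩
    · exact g.2.2 a ha
    · have h1 := congrArg (fun f : Fin 4 ↪ {a : α // a ∉ S} => ((f i : {a : α // a ∉ S}) : α)) hg
      exact h1
  have hne : Nonempty (Fin 4 ↪ {a : α // a ∉ S}) :=
    Function.Embedding.nonempty_of_card_le (by rw [Fintype.card_fin, hcardΩ]; omega)
  have h11 := (Cfsg.Agent.S0708.result h4 hsharp hne).2.1
  rw [Nat.card_eq_fintype_card, hcardΩ] at h11
  omega

end Cfsg.Agent.Lib.Helper38.LW
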